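import Cfsg.Agent.Lib.Helper11.P3c1.Top

set_option autoImplicit false
set_option maxRecDepth 100000

namespace Cfsg.Agent.Lib.Helper11.P3c1

set_option maxHeartbeats 0
theorem b0 : allR (guardB 3 (blk fc sc rt.get INV isH)) 2 0 = true := by decide +kernel
theorem c0 : allR (guardB 2 (cblk fc nc cc 768 56 39402006196394479212279040100143613805079739270465446667948293404245721771497210611414266254884915640806627990306816 gens)) 1 0 = true := by decide +kernel

end Cfsg.Agent.Lib.Helper11.P3c1
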